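import Cfsg.Agent.H849.OZ.Bad
import Cfsg.Agent.H733.OZ.Good
import Cfsg.Agent.H672.OZ.Full

/-!
# S4842: rational elements of order a power of a prime with primitive root 2 (helper492)

* `rat_of_two` : `y ^ n = 1`, `y` conjugate to `y ^ 2`, 2 a primitive root modulo `n`: `y` is rational;
* `conj_of_dvd` : `r ∣ χ(1)`, `y` a rational `r`-element with `|C(y)| < 4 (r² - 1)`, `4 ≤ |C(x)|`: `x` is conjugate
  to `y`.
-/

set_option autoImplicit false

open Cfsg Cfsg.Agent.Characters Cfsg.Agent.H732.VZ Cfsg.Agent.H604.OZ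

namespace Cfsg.Agent.H492.OZ

universe u

variable {G : Type u} [Group G]

theorem isConj_pow {y z : G} (h : IsConj y z) (k : ℕ) : IsConj (y ^ k) (z ^ k) := by
  obtain ⟨c, rfl⟩ := isConj_iff.1 h
  exact isConj_iff.2 ⟨c, by rw [conj_pow]⟩

theorem conj_two_pow {y : G} (h : IsConj y (y ^ 2)) (j : ℕ) : IsConj y (y ^ 2 ^ j) := by
  induction j with
  | zero => rw [pow_zero, pow_one]
  | succ j ih =>
    refine ih.trans ?_
    have h1 := isConj_pow h (2 ^ j)
    rwa [← pow_mul, ← pow_succ'] at h1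

/-- An element conjugate to its square, 2 a primitive root modulo `n`. -/
theorem rat_of_two {y : G} {n : ℕ} (hn : y ^ n = 1) (h : IsConj y (y ^ 2)) (hn0 : 0 < n)
    (hgen : ∀ m < n, m.Coprime n → ∃ j < n, 2 ^ j % n = m) {m : ℕ} (hm : m.Coprime n) : IsConj (y ^ m) y := by
  have hmod : (m % n).Coprime n := by
    unfold Nat.Coprime at hm ⊢
    rw [← Nat.gcd_rec, Nat.gcd_comm]
    exact hm
  obtain ⟨j, -, hj⟩ := hgen (m % n) (Nat.mod_lt _ hn0) hmod
  have h1 : y ^ m = y ^ 2 ^ j := by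
    rw [pow_eq_pow_mod m hn, pow_eq_pow_mod (2 ^ j) hn, hj]
  rw [h1]
  exact (conj_two_pow h j).symm

variable [Finite G]

/-- `r` divides the degree: `x` is conjugate to every rational `r`-element with small centralizer. -/
theorem conj_of_dvd {χ : IrrCharacter G} {x y : G} (h : One χ x) {r : ℕ} (hr : r.Prime)
    (hd : r ∣ charDegree (χ : G → ℂ)) (hr' : ∃ n, orderOf y = r ^ n)
    (hy : ∀ m : ℕ, m.Coprime (Nat.card G) → IsConj (y ^ m) y) (hc : cent y < 4 * (r ^ 2 - 1)) (h4 : 4 ≤ cent x) :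
    IsConj x y := by
  by_contra hx
  have h1 := H849.OZ.one_prime h hr hd hr' hy hx
  have h2 := Nat.mul_le_mul_right (r ^ 2 - 1) h4
  omega

/-- T4 for a prime dividing the order exactly once. -/
theorem mod_sq {χ : IrrCharacter G} {x : G} (h : One χ x) {r : ℕ} (hr : r.Prime) (h1 : r ∣ Nat.card G)
    (h2 : ¬ r ^ 2 ∣ Nat.card G) (hc : r < cent x) : (charDegree (χ : G → ℂ) ^ 2 - 1) % r = 0 := by
  have h3 := H733.OZ.pow_dvd h (n := 1) hr (by rwa [pow_one]) h2 (by rwa [pow_one])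
  rw [pow_one] at h3
  exact Nat.mod_eq_zero_of_dvd h3

end Cfsg.Agent.H492.OZ
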